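import Cfsg.Agent.H995.IMB
import Cfsg.Agent.BM.KHAll

/-!
# S3010 (Sidki pairs), the row of the Baby Monster: elements of order 19 and transpositions (helper74)

* `exists_comm` : an element of order 19 of the Baby Monster commutes with a transposition;
* `unique_comm` : with at most one.
-/

set_option autoImplicit false

namespace Cfsg.Agent.H74.SK.BUniq

open Cfsg Cfsg.Agent.BabyM.Inst Cfsg.Agent.H995.BSch Cfsg.Agent.H995.BSchVal Cfsg.Agent.H816.IMEig
  Cfsg.Agent.H816.IMEig.Col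

instance : Finite M.G := BabyM.Instance.all.finite_G

theorem isc : Col M.G (X M) (Fin 5) (cX M) 0 := sch.isCol BabyM.Instance.all BabyM.Instance.tr

theorem card_HH : Nat.card (HH M) = 306129918735099415756800 := by
  rw [HH_eq BabyM.Instance.all BabyM.Instance.tr]
  exact BabyM.Instance.all.card_cent BabyM.Instance.tr

theorem kk_dvd_aux : ∀ u : Fin 5, u ≠ 0 → 19 ∣ ∑ w, H995.IMB.t u w := by
  decide +kernel

theorem kk_dvd (x : X M) {u : Fin 5} (hu : u ≠ 0) : 19 ∣ kk (cX M) x u := by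
  obtain ⟨z₀, h1, h2⟩ := H995.IMB.exists_z
  rw [isc.kk_eq x (QuotientGroup.mk 1), kk_eq_sum (QuotientGroup.mk 1) z₀]
  have h3 : (∑ w, tt (cX M) (QuotientGroup.mk 1) z₀ u w) = ∑ w, H995.IMB.t u w :=
    Finset.sum_congr rfl fun w _ => h2 u w
  rw [h3]
  exact kk_dvd_aux u hu

theorem stabilizer_eq : MulAction.stabilizer M.G (QuotientGroup.mk 1 : X M) = HH M := by
  ext g
  rw [MulAction.mem_stabilizer_iff]
  have h1 : g • (QuotientGroup.mk 1 : X M) = QuotientGroup.mk (g * 1) := rfl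
  rw [h1, mul_one, eq_comm, QuotientGroup.eq, inv_one, one_mul]

/-- an element of order 19 fixes at most one point -/
theorem unique_fix {g : M.G} (hg : orderOf g = 19) {x x' : X M} (hx : g • x = x) (hx' : g • x' = x') : x = x' := by
  by_contra hne
  set u := cX M x x' with hu
  have hu0 : u ≠ 0 := fun h => hne ((isc.diag x x').1 h)
  set S := MulAction.stabilizer M.G x with hS
  have hcS : Nat.card S = 306129918735099415756800 := by
    obtain ⟨k, hk⟩ := isc.exists_smul (QuotientGroup.mk 1) x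
    have h1 : Nat.card (MulAction.stabilizer M.G (QuotientGroup.mk 1 : X M)) = 306129918735099415756800 := by
      rw [stabilizer_eq, card_HH]
    rw [hS, ← h1]
    exact Nat.card_congr (MulAction.stabilizerEquivStabilizer hk.symm).symm.toEquiv
  have horb : MulAction.orbit S x' = {y | cX M x y = u} := by
    ext y
    constructor
    · rintro ⟨⟨s, hs⟩, rfl⟩
      show cX M x (s • x') = u
      have h1 := isc.inv s x x'
      rw [MulAction.mem_stabilizer_iff.1 hs] at h1
      rw [h1]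
    · intro hy
      obtain ⟨s, hs, hs'⟩ := isc.tr x x' x y hy.symm
      exact ⟨⟨s, hs⟩, hs'⟩
  have h1 : 19 ∣ (MulAction.orbit S x').ncard := by
    have h2 : (MulAction.orbit S x').ncard = kk (cX M) x u := by
      rw [horb]
      rfl
    rw [h2]
    exact kk_dvd x hu0
  rw [← MulAction.index_stabilizer] at h1
  have h2 : 19 ∣ Nat.card (MulAction.stabilizer S x') := by
    have h3 : (⟨g, hx⟩ : S) ∈ MulAction.stabilizer S x' := hx'
    have h4 := Subgroup.orderOf_dvd_natCard _ h3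
    have h5 : orderOf (⟨g, hx⟩ : S) = 19 := by rw [← hg]; exact Subgroup.orderOf_mk g hx
    rwa [h5] at h4
  have h3 := Nat.mul_dvd_mul h2 h1
  rw [Subgroup.card_mul_index, hcS] at h3
  norm_num at h3

theorem exists_fix {g : M.G} (hg : orderOf g = 19) : ∃ x : X M, g • x = x := by
  have : Fact (Nat.Prime 19) := ⟨by norm_num⟩
  have hp : IsPGroup 19 (Subgroup.zpowers g) := IsPGroup.of_card (n := 1) (by rw [Nat.card_zpowers, hg, pow_one])
  have hX : Nat.card (X M) = 13571955000 := card_X BabyM.Instance.all BabyM.Instance.tr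
  have hfin : Finite (X M) := Nat.finite_of_card_ne_zero (by rw [hX]; norm_num)
  have h1 := hp.card_modEq_card_fixedPoints (X M)
  rw [hX] at h1
  by_contra hcon
  push Not at hcon
  have h2 : Nat.card (MulAction.fixedPoints (Subgroup.zpowers g) (X M)) = 0 := by
    rw [Nat.card_eq_zero]
    left
    refine ⟨fun x => hcon x.1 ?_⟩
    exact x.2 ⟨g, Subgroup.mem_zpowers g⟩
  rw [h2] at h1
  revert h1
  decide

theorem fix_iff {g k : M.G} : g • (QuotientGroup.mk k : X M) = QuotientGroup.mk k ↔ Commute g (k * BM.KH.t0 * k⁻¹) := by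
  have h1 : g • (QuotientGroup.mk k : X M) = QuotientGroup.mk (g * k) := rfl
  rw [h1, eq_comm, QuotientGroup.eq, HH_eq BabyM.Instance.all BabyM.Instance.tr, Subgroup.mem_centralizer_singleton_iff]
  have h2 : (⟨M.t₀, BabyM.Instance.all.C_le_G BabyM.Instance.all.t₀_C⟩ : M.G) = BM.KH.t0 := rfl
  rw [h2]
  constructor
  · intro h
    show g * (k * BM.KH.t0 * k⁻¹) = k * BM.KH.t0 * k⁻¹ * g
    calc g * (k * BM.KH.t0 * k⁻¹) = k * (k⁻¹ * (g * k) * BM.KH.t0) * k⁻¹ := by group
      _ = k * (BM.KH.t0 * (k⁻¹ * (g * k))) * k⁻¹ := by rw [h]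
      _ = _ := by group
  · intro h
    have h3 : g * (k * BM.KH.t0 * k⁻¹) = k * BM.KH.t0 * k⁻¹ * g := h
    calc k⁻¹ * (g * k) * BM.KH.t0 = k⁻¹ * (g * (k * BM.KH.t0 * k⁻¹)) * k := by group
      _ = k⁻¹ * (k * BM.KH.t0 * k⁻¹ * g) * k := by rw [h3]
      _ = _ := by group

theorem conj_eq {k k' : M.G} (h : (QuotientGroup.mk k : X M) = QuotientGroup.mk k') :
    k * BM.KH.t0 * k⁻¹ = k' * BM.KH.t0 * k'⁻¹ := by
  rw [QuotientGroup.eq, HH_eq BabyM.Instance.all BabyM.Instance.tr, Subgroup.mem_centralizer_singleton_iff] at h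
  have h2 : (⟨M.t₀, BabyM.Instance.all.C_le_G BabyM.Instance.all.t₀_C⟩ : M.G) = BM.KH.t0 := rfl
  rw [h2] at h
  calc k * BM.KH.t0 * k⁻¹ = k * (BM.KH.t0 * (k⁻¹ * k')) * k'⁻¹ := by group
    _ = k * (k⁻¹ * k' * BM.KH.t0) * k'⁻¹ := by rw [h]
    _ = _ := by group

/-- the transpositions -/
abbrev t1 : Spor.BabyMonster := PresentedGroup.of Spor.BabyMonster.Gen.t1

theorem conj_iso {j : Spor.BabyMonster} : IsConj t1 j ↔ IsConj BM.KH.t0 (BM.KHAll.iso j) := by
  have h1 : IsConj BM.KH.t0 (BM.KHAll.iso t1) := by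
    have h2 : BM.KHAll.iso t1 = _ := BM.KHAll.iso_gB .t1
    rw [h2]
    exact BM.KH.conj_x .t1
  constructor
  · intro h
    exact h1.trans (BM.KHAll.iso.toMonoidHom.map_isConj h)
  · intro h
    have h2 := BM.KHAll.iso.symm.toMonoidHom.map_isConj (h1.symm.trans h)
    have e1 : ∀ g, BM.KHAll.iso.symm.toMonoidHom (BM.KHAll.iso g) = g := fun g => BM.KHAll.iso.symm_apply_apply g
    rwa [e1, e1] at h2

/-- **existence** -/
theorem exists_comm {y : Spor.BabyMonster} (hy : orderOf y = 19) : ∃ j, IsConj t1 j ∧ Commute y j := by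
  obtain ⟨x, hx⟩ := exists_fix (g := BM.KHAll.iso y) (by rw [MulEquiv.orderOf_eq, hy])
  obtain ⟨k, rfl⟩ := exists_mk x
  rw [fix_iff] at hx
  refine ⟨BM.KHAll.iso.symm (k * BM.KH.t0 * k⁻¹), ?_, ?_⟩
  · rw [conj_iso, MulEquiv.apply_symm_apply]
    exact isConj_iff.2 ⟨k, rfl⟩
  · have h1 := hx.map BM.KHAll.iso.symm
    rwa [MulEquiv.symm_apply_apply] at h1

/-- **uniqueness** -/
theorem unique_comm {y : Spor.BabyMonster} (hy : orderOf y = 19) {j j' : Spor.BabyMonster} (hj : IsConj t1 j)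
    (hj' : IsConj t1 j') (h : Commute y j) (h' : Commute y j') : j = j' := by
  rw [conj_iso] at hj hj'
  obtain ⟨k, hk⟩ := isConj_iff.1 hj
  obtain ⟨k', hk'⟩ := isConj_iff.1 hj'
  have h1 := h.map BM.KHAll.iso
  have h1' := h'.map BM.KHAll.iso
  rw [← hk, ← fix_iff] at h1
  rw [← hk', ← fix_iff] at h1'
  have h2 := conj_eq (unique_fix (g := BM.KHAll.iso y) (by rw [MulEquiv.orderOf_eq, hy]) h1 h1')
  rw [hk, hk'] at h2
  exact BM.KHAll.iso.injective h2

end Cfsg.Agent.H74.SK.BUniq
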